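import Cfsg.Agent.S0801
import Cfsg.Agent.OddHalf.NI.ModelChev

/-!
# S5719: two opposite root elements generate the central involution of their `SL₂` (helper518)

* `neg_one_mem` : `-1 ∈ ⟨u(s), v(t)⟩` in `SL₂(F)`, `F` finite of odd characteristic, `s, t ≠ 0`;
* `hop` : the image in `D.group F`: `h_r(-1) ∈ ⟨x, y⟩` for `1 ≠ x ∈ X_r`, `1 ≠ y ∈ X_{-r}`.
-/

set_option autoImplicit false
set_option linter.unusedSectionVars false

namespace Cfsg.Agent.H518.IF

open Cfsg.Lie Cfsg.Agent.ChevalleyStructure Cfsg.Agent.ChevalleyStructure.Elts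
  Cfsg.Agent.ChevalleyStructure.CoxeterGeomTypes Cfsg.Agent.Nodes.RGDChev
  Cfsg.Agent.KFacts.RgdChevCoord Cfsg.Agent.OddHalf.NI.ModelChev
open Cfsg.Agent.FixBN.FieldRGD (uu vv dd ww)
open Matrix
open scoped MatrixGroups

universe u

/-- `-1` is the only involution -/
theorem eq_neg_one {F : Type u} [Field F] (h2 : (2 : F) ≠ 0) {g : SL(2, F)} (hg : g ^ 2 = 1) (h1 : g ≠ 1) : g = -1 := by
  have hdet : g.1 0 0 * g.1 1 1 - g.1 0 1 * g.1 1 0 = 1 := by rw [← Matrix.det_fin_two]; exact g.2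
  have hsq : g.1 * g.1 = 1 := by
    have := congrArg Subtype.val hg
    rwa [pow_two] at this
  have e00 : g.1 0 0 * g.1 0 0 + g.1 0 1 * g.1 1 0 = 1 := by
    have := congrFun (congrFun hsq 0) 0
    simpa [Matrix.mul_apply, Fin.sum_univ_two] using this
  have e01 : g.1 0 0 * g.1 0 1 + g.1 0 1 * g.1 1 1 = 0 := by
    have := congrFun (congrFun hsq 0) 1
    simpa [Matrix.mul_apply, Fin.sum_univ_two] using this
  have e10 : g.1 1 0 * g.1 0 0 + g.1 1 1 * g.1 1 0 = 0 := by
    have := congrFun (congrFun hsq 1) 0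
    simpa [Matrix.mul_apply, Fin.sum_univ_two] using this
  have e11 : g.1 1 0 * g.1 0 1 + g.1 1 1 * g.1 1 1 = 1 := by
    have := congrFun (congrFun hsq 1) 1
    simpa [Matrix.mul_apply, Fin.sum_univ_two] using this
  set a := g.1 0 0
  set b := g.1 0 1
  set c := g.1 1 0
  set d := g.1 1 1
  have f1 : d = a ∨ a + d = 0 := by
    have : (d - a) * (a + d) = 0 := by linear_combination e11 - e00
    rcases mul_eq_zero.1 this with h | h
    · exact Or.inl (sub_eq_zero.1 h)
    · exact Or.inr h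
  -- the trace is not zero
  have f2 : a + d ≠ 0 := by
    intro h
    have hd : d = -a := by linear_combination h
    have : (2 : F) = 0 := by rw [hd] at hdet; linear_combination -e00 - hdet
    exact h2 this
  have f3 : d = a := f1.resolve_right f2
  have f4 : b = 0 := by
    have : b * (a + d) = 0 := by linear_combination e01
    exact (mul_eq_zero.1 this).resolve_right f2
  have f5 : c = 0 := by
    have : c * (a + d) = 0 := by linear_combination e10
    exact (mul_eq_zero.1 this).resolve_right f2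
  have f6 : a = 1 ∨ a = -1 := by
    rw [f4, zero_mul, add_zero] at e00
    exact mul_self_eq_one_iff.1 e00
  rcases f6 with f6 | f6
  · exfalso
    apply h1
    apply Subtype.ext
    ext i j
    fin_cases i <;> fin_cases j
    · exact f6
    · exact f4
    · exact f5
    · exact f3.trans f6
  · apply Subtype.ext
    ext i j
    fin_cases i <;> fin_cases j
    · show a = (-1 : Matrix (Fin 2) (Fin 2) F) 0 0
      rw [f6]; simp
    · show b = (-1 : Matrix (Fin 2) (Fin 2) F) 0 1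
      rw [f4]; simp
    · show c = (-1 : Matrix (Fin 2) (Fin 2) F) 1 0
      rw [f5]; simp
    · show d = (-1 : Matrix (Fin 2) (Fin 2) F) 1 1
      rw [f3, f6]; simp

/-- the case of a generator of the field -/
theorem neg_one_mem_gen {F : Type u} [Field F] [Finite F] (h2 : (2 : F) ≠ 0) {lam : F} (hlam : lam ≠ 0)
    (hgen : Subfield.closure ({lam} : Set F) = ⊤) : (-1 : SL(2, F)) ∈ Subgroup.closure ({vv 1, uu lam} : Set SL(2, F)) := by
  have := Fintype.ofFinite F
  have h1 := Cfsg.Agent.S0801.result h2 lam hlam hgen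
  have e : {g : Matrix.SpecialLinearGroup (Fin 2) F | (g : Matrix (Fin 2) (Fin 2) F) = !![1, 0; 1, 1] ∨
      (g : Matrix (Fin 2) (Fin 2) F) = !![1, lam; 0, 1]} = ({vv 1, uu lam} : Set SL(2, F)) :=
    Cfsg.Agent.S0801.closure_set_eq lam
  rw [e] at h1
  rcases h1 with ⟨h1, -⟩ | ⟨-, -, h1⟩
  · rw [h1]; exact Subgroup.mem_top _
  · have hf : Fact (Nat.Prime 2) := ⟨Nat.prime_two⟩
    obtain ⟨x, hx⟩ := exists_prime_orderOf_dvd_card' (G := ↥(Subgroup.closure ({vv 1, uu lam} : Set SL(2, F)))) 2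
      (by rw [h1]; norm_num)
    have hx1 : (x : SL(2, F)) ^ 2 = 1 := by
      have h3 := pow_orderOf_eq_one x
      rw [hx] at h3
      exact congrArg Subtype.val h3
    have hx2 : (x : SL(2, F)) ≠ 1 := by
      intro h
      have : x = 1 := Subtype.ext h
      rw [this, orderOf_one] at hx
      omega
    rw [← eq_neg_one h2 hx1 hx2]
    exact x.2

/-- conjugation by `diag(a, 1)` -/
def dg {F : Type u} [Field F] (a : F) (ha : a ≠ 0) : SL(2, F) →* SL(2, F) where
  toFun g := ⟨!![g.1 0 0, a * g.1 0 1; a⁻¹ * g.1 1 0, g.1 1 1], by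
    have hdet : g.1 0 0 * g.1 1 1 - g.1 0 1 * g.1 1 0 = 1 := by rw [← Matrix.det_fin_two]; exact g.2
    rw [Matrix.det_fin_two_of]
    field_simp
    linear_combination hdet⟩
  map_one' := by
    apply Subtype.ext
    show !![(1 : Matrix (Fin 2) (Fin 2) F) 0 0, a * (1 : Matrix (Fin 2) (Fin 2) F) 0 1;
      a⁻¹ * (1 : Matrix (Fin 2) (Fin 2) F) 1 0, (1 : Matrix (Fin 2) (Fin 2) F) 1 1] = 1
    ext i j
    fin_cases i <;> fin_cases j <;> simp
  map_mul' g h := by
    apply Subtype.ext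
    show !![(g.1 * h.1) 0 0, a * (g.1 * h.1) 0 1; a⁻¹ * (g.1 * h.1) 1 0, (g.1 * h.1) 1 1] =
      !![g.1 0 0, a * g.1 0 1; a⁻¹ * g.1 1 0, g.1 1 1] * !![h.1 0 0, a * h.1 0 1; a⁻¹ * h.1 1 0, h.1 1 1]
    rw [Matrix.mul_fin_two]
    simp only [Matrix.mul_apply, Fin.sum_univ_two]
    ext i j
    fin_cases i <;> fin_cases j <;> simp <;> field_simp

theorem dg_neg_one {F : Type u} [Field F] (a : F) (ha : a ≠ 0) : dg a ha (-1) = -1 := by
  apply Subtype.ext
  show !![(-1 : Matrix (Fin 2) (Fin 2) F) 0 0, a * (-1 : Matrix (Fin 2) (Fin 2) F) 0 1;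
      a⁻¹ * (-1 : Matrix (Fin 2) (Fin 2) F) 1 0, (-1 : Matrix (Fin 2) (Fin 2) F) 1 1] = -1
  ext i j
  fin_cases i <;> fin_cases j <;> simp

theorem dg_uu {F : Type u} [Field F] (a : F) (ha : a ≠ 0) (x : F) : dg a ha (uu x) = uu (a * x) := by
  apply Subtype.ext
  show !![(!![1, x; 0, 1] : Matrix (Fin 2) (Fin 2) F) 0 0, a * (!![1, x; 0, 1] : Matrix (Fin 2) (Fin 2) F) 0 1;
      a⁻¹ * (!![1, x; 0, 1] : Matrix (Fin 2) (Fin 2) F) 1 0, (!![1, x; 0, 1] : Matrix (Fin 2) (Fin 2) F) 1 1] =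
    !![1, a * x; 0, 1]
  simp

theorem dg_vv {F : Type u} [Field F] (a : F) (ha : a ≠ 0) (x : F) : dg a ha (vv x) = vv (a⁻¹ * x) := by
  apply Subtype.ext
  show !![(!![1, 0; x, 1] : Matrix (Fin 2) (Fin 2) F) 0 0, a * (!![1, 0; x, 1] : Matrix (Fin 2) (Fin 2) F) 0 1;
      a⁻¹ * (!![1, 0; x, 1] : Matrix (Fin 2) (Fin 2) F) 1 0, (!![1, 0; x, 1] : Matrix (Fin 2) (Fin 2) F) 1 1] =
    !![1, 0; a⁻¹ * x, 1]
  simp

/-- **`-1 ∈ ⟨u(s), v(t)⟩`** -/
theorem neg_one_mem {F : Type u} [Field F] [Finite F] (h2 : (2 : F) ≠ 0) {s t : F} (hs : s ≠ 0) (ht : t ≠ 0) :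
    (-1 : SL(2, F)) ∈ Subgroup.closure ({uu s, vv t} : Set SL(2, F)) := by
  let K : Subfield F := Subfield.closure ({s * t} : Set F)
  let lam : K := ⟨s * t, Subfield.subset_closure rfl⟩
  have h2' : (2 : K) ≠ 0 := fun h => h2 (congrArg Subtype.val h)
  have hlam : lam ≠ 0 := fun h => mul_ne_zero hs ht (congrArg Subtype.val h)
  have hgen : Subfield.closure ({lam} : Set K) = ⊤ := by
    rw [eq_top_iff]
    intro x _
    have h3 : (Subfield.closure ({lam} : Set K)).map K.subtype = K := by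
      rw [RingHom.map_field_closure, Set.image_singleton]
      rfl
    have h4 : (x : F) ∈ (Subfield.closure ({lam} : Set K)).map K.subtype := by rw [h3]; exact x.2
    obtain ⟨y, hy, hyx⟩ := h4
    have : y = x := Subtype.ext hyx
    rwa [← this]
  have h3 := neg_one_mem_gen h2' hlam hgen
  have h4 : (-1 : SL(2, F)) ∈ Subgroup.closure ({vv 1, uu (s * t)} : Set SL(2, F)) := by
    have h5 := Subgroup.mem_map_of_mem (Matrix.SpecialLinearGroup.map (n := Fin 2) K.subtype) h3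
    rw [MonoidHom.map_closure, Set.image_pair] at h5
    have e1 : Matrix.SpecialLinearGroup.map (n := Fin 2) K.subtype (-1) = -1 := by
      apply Subtype.ext
      show ((-1 : Matrix (Fin 2) (Fin 2) K)).map K.subtype = -1
      ext i j
      fin_cases i <;> fin_cases j <;> simp
    have e2 : Matrix.SpecialLinearGroup.map (n := Fin 2) K.subtype (vv 1) = vv 1 := by
      apply Subtype.ext
      show (!![1, 0; 1, 1] : Matrix (Fin 2) (Fin 2) K).map K.subtype = !![1, 0; 1, 1]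
      ext i j
      fin_cases i <;> fin_cases j <;> simp
    have e3 : Matrix.SpecialLinearGroup.map (n := Fin 2) K.subtype (uu lam) = uu (s * t) := by
      apply Subtype.ext
      show (!![1, lam; 0, 1] : Matrix (Fin 2) (Fin 2) K).map K.subtype = !![1, s * t; 0, 1]
      ext i j
      fin_cases i <;> fin_cases j <;> simp [lam]
    rwa [e1, e2, e3] at h5
  have ht' : t⁻¹ ≠ 0 := inv_ne_zero ht
  have h5 := Subgroup.mem_map_of_mem (dg t⁻¹ ht') h4
  rw [MonoidHom.map_closure, Set.image_pair, dg_neg_one, dg_vv, dg_uu, inv_inv, mul_one, mul_comm s t,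
    inv_mul_cancel_left₀ ht, Set.pair_comm] at h5
  exact h5

section

variable {D : ChevalleyDatum} {l : ℕ} {M : CoxeterMatrix (Fin l)} (hp : IsType D l M) {K : Type u} [Field K]

/-- `h_r(-1)` -/
noncomputable def zr (hp : IsType D l M) (K : Type u) [Field K] (r : ℕ) : ↥(D.group K) :=
  ⟨hG hp.inList r (-1), hG_mem_group hp.inList _ _⟩

/-- **`h_r(-1) ∈ ⟨x_r(s), x_{-r}(t)⟩`** -/
theorem hop [Finite K] (h2 : (2 : K) ≠ 0) {r : ℕ} (hr : r < D.nroots) {s t : K} (hs : s ≠ 0) (ht : t ≠ 0) :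
    zr hp K r ∈ Subgroup.closure ({xc hp (vec D l r) s, xc hp (-(vec D l r)) t} : Set ↥(D.group K)) := by
  obtain ⟨φ, h3, h4, -, h5, -⟩ := exists_sl hp (K := K) hr
  have h6 := Subgroup.mem_map_of_mem φ (neg_one_mem h2 hs ht)
  rw [MonoidHom.map_closure, Set.image_pair, h3, h4] at h6
  have e1 : φ (-1) = zr hp K r := by
    apply Subtype.ext
    refine Eq.trans ?_ (h5 (-1) (by simp))
    congr 2
    apply Subtype.ext
    show (-1 : Matrix (Fin 2) (Fin 2) K) = !![-1, 0; 0, (-1)⁻¹]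
    ext i j
    fin_cases i <;> fin_cases j <;> simp
  rwa [e1] at h6

end

end Cfsg.Agent.H518.IF
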